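import Cfsg.Agent.Lib.Helper35.ONOrd.U5.Col0

namespace Cfsg.Agent.Lib.Helper35.ONOrd.U5

open Cfsg.Agent.Lib.Helper35

theorem tchk0 : treeChk (invOf invL) 2 (fullBases 2 (invOf invL) (R)) (fullSub (invOf invL) (S)) 0 tree0 = true := by decide +kernel
theorem tchk1 : treeChk (invOf invL) 2 (fullBases 2 (invOf invL) (R)) (fullSub (invOf invL) (S)) 1 tree1 = true := by decide +kernel
theorem tchk2 : treeChk (invOf invL) 2 (fullBases 2 (invOf invL) (R)) (fullSub (invOf invL) (S)) 2 tree2 = true := by decide +kernel

noncomputable def certData2 : CertData2 (2) (invOf invL) (R) (S) 3 where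
  P := par
  hP := ⟨by decide +kernel, by decide +kernel, by decide +kernel, by decide +kernel, by decide +kernel⟩
  tabs := tabs
  N := 3
  st := st
  hst := hst
  trees := trees
  je := je
  pe := pe
  rb := 2
  mR := 3
  cK := 4
  hcK := by decide +kernel
  htree := by
    intro l hl
    have hl' : l ≤ 2 := hl
    interval_cases l
    exacts [tchk0, tchk1, tchk2]
  hN := by decide +kernel
  hN1 := by decide +kernel
  hlo := by
    intro l hl
    have hl' : l ≤ 2 := hl
    interval_cases l <;> decide +kernel
  hhi := by
    intro l hl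
    have hl' : l ≤ 2 := hl
    interval_cases l <;> decide +kernel
  hz := by
    intro l hl
    have hl' : 2 < l := hl
    obtain ⟨k, rfl⟩ : ∃ k, l = k + 3 := ⟨l - 3, by omega⟩
    rfl
  hcol := by
    intro l hl
    have hl' : l < 2 := hl
    interval_cases l
    exacts [s0u0, s1u0]
  heps := s2u0
  hcount := gn0

noncomputable def certData : CertData (2) (invOf invL) (R) (S) 3 := certData2.toCertData

end Cfsg.Agent.Lib.Helper35.ONOrd.U5
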